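import Cfsg.Agent.Lib.Ree.SchB

/-! Schur multipliers of the small Ree groups: the retraction onto the kernel and the end of the argument at the prime three. -/

set_option autoImplicit false
set_option linter.unusedSimpArgs false
set_option linter.unusedVariables false
set_option linter.unusedSectionVars false

namespace Cfsg.Agent.Lib.Ree

open scoped commutatorElement
open Cfsg.Agent.Lib.Suzuki (comm_mul_left comm_mul_right comm_congr)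

variable {K : Type*} [Field K] [CharP K 3] {f : K ≃+* K} {G : Type*} [Group G] {Γ : Type*} [Group Γ]

namespace SX

variable {R : RD K f G} {σ : Γ →* G} (S : SX R σ)

include S

variable [Fintype K]

theorem conj_congr {p p' x : Γ} (h : σ p = σ p') : p * x * p⁻¹ = p' * x * p'⁻¹ := by
  have hk : p' * p⁻¹ ∈ σ.ker := by
    rw [MonoidHom.mem_ker, map_mul, map_inv, h, mul_inv_cancel]
  obtain ⟨k, hk', rfl⟩ : ∃ k ∈ σ.ker, p' = k * p := ⟨_, hk, by group⟩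
  have e : ∀ y : Γ, y * k = k * y := S.cen hk'
  calc p * x * p⁻¹ = k * (p * x * p⁻¹) * k⁻¹ := by rw [← e]; group
    _ = k * p * x * (k * p)⁻¹ := by group

/-- The retraction. -/
theorem exists_Pi : ∃ Pi : Γ → Γ,
    (∀ {x x' : Γ} {b c b' c' : K}, σ x = R.t 0 b c → σ x' = R.t 0 b' c' → Pi (x * x') = Pi x * Pi x') ∧
    (∀ {x : Γ} {b c : K}, σ x = R.t 0 b c → Pi x ∈ σ.ker) ∧
    (∀ (g : Γ) (s : Kˣ), σ g = R.h s → ∀ {x : Γ} {b c : K}, σ x = R.t 0 b c → Pi (g * x * g⁻¹) = Pi x) ∧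
    (∀ z ∈ σ.ker, Pi z = z⁻¹) := by
  classical
  let V : Subgroup Γ :=
    { carrier := {x | ∃ b c, σ x = R.t 0 b c}
      mul_mem' := by
        rintro x x' ⟨b, c, h⟩ ⟨b', c', h'⟩
        exact ⟨_, _, by rw [map_mul, h, h', R.t_V2]⟩
      one_mem' := ⟨0, 0, by rw [map_one, R.t_zero]⟩
      inv_mem' := by
        rintro x ⟨b, c, h⟩
        refine ⟨-b, -c, ?_⟩
        rw [map_inv, h]
        apply inv_eq_of_mul_eq_one_right
        rw [R.t_V2, add_neg_cancel, add_neg_cancel, R.t_zero] }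
  have memV : ∀ {x : Γ}, x ∈ V ↔ ∃ b c, σ x = R.t 0 b c := Iff.rfl
  letI inst : CommGroup V := { (inferInstance : Group V) with
    mul_comm := fun x x' => Subtype.ext (by
      obtain ⟨b, c, h⟩ := memV.mp x.2
      obtain ⟨b', c', h'⟩ := memV.mp x'.2
      exact commutatorElement_eq_one_iff_mul_comm.mp (S.comm_V h h')) }
  have hconj : ∀ (s : Kˣ) (x : V), S.L (R.h s) * (x : Γ) * (S.L (R.h s))⁻¹ ∈ V := by
    intro s x
    obtain ⟨b, c, h⟩ := memV.mp x.2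
    refine memV.mpr ⟨(s : K) ^ 3 * (f (s : K))⁻¹ ^ 3 * b, f (s : K) ^ 3 * c, ?_⟩
    rw [map_mul, map_mul, map_inv, S.L_spec, h, R.h_t, mul_zero]
  let act : Kˣ → V →* V := fun s =>
    { toFun := fun x => ⟨S.L (R.h s) * x * (S.L (R.h s))⁻¹, hconj s x⟩
      map_one' := Subtype.ext (by simp)
      map_mul' := fun x x' => Subtype.ext (by
        show S.L (R.h s) * ((x : Γ) * x') * (S.L (R.h s))⁻¹ = S.L (R.h s) * x * (S.L (R.h s))⁻¹ * (S.L (R.h s) * x' * (S.L (R.h s))⁻¹)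
        group) }
  have act_val : ∀ (s : Kˣ) (x : V), ((act s x : V) : Γ) = S.L (R.h s) * x * (S.L (R.h s))⁻¹ := fun _ _ => rfl
  let N : V →* V := ∏ s : Kˣ, act s
  have hN : ∀ x : V, N x = ∏ s : Kˣ, act s x := fun x => MonoidHom.finset_prod_apply _ _ _
  obtain ⟨t, ht0, ht1, ht2⟩ := S.ht
  have hpart : ∀ (x : V) (b c : K), σ x = R.t 0 b c → ∀ T : Finset Kˣ, σ ((∏ s ∈ T, act s x : V) : Γ) =
      R.t 0 (∑ s ∈ T, (s : K) ^ 3 * (f (s : K))⁻¹ ^ 3 * b) (∑ s ∈ T, f (s : K) ^ 3 * c) := by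
    intro x b c hx T
    induction T using Finset.induction_on with
    | empty => simp [R.t_zero]
    | insert a T ha ih =>
      rw [Finset.prod_insert ha, Finset.sum_insert ha, Finset.sum_insert ha, Subgroup.coe_mul, map_mul, ih, act_val,
        map_mul, map_mul, map_inv, S.L_spec, hx, R.h_t, mul_zero, R.t_V2]
  have hs₀ : ((Units.mk0 t ht0 : Kˣ) : K) ^ 2 ≠ 1 := by
    intro h
    have : (t - 1) * (t + 1) = 0 := by
      have h' : t ^ 2 = 1 := h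
      linear_combination h'
    rcases mul_eq_zero.mp this with h' | h'
    · exact ht1 (sub_eq_zero.mp h')
    · exact ht2 (eq_neg_of_add_eq_zero_left h')
  have hsb : ∑ s : Kˣ, (s : K) ^ 3 * (f (s : K))⁻¹ ^ 3 = 0 := by
    refine sch_sum _ (fun s s' => ?_) (Units.mk0 t ht0) (Cfsg.Agent.Lib.Chev.TwG2.chi2 f R.hf3 hs₀)
    rw [Units.val_mul, map_mul, mul_inv, mul_pow, mul_pow]
    ring
  have hsc : ∑ s : Kˣ, f (s : K) ^ 3 = 0 := by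
    refine sch_sum _ (fun s s' => ?_) (Units.mk0 t ht0) (Cfsg.Agent.Lib.Chev.TwG2.chi3 f R.hf3 hs₀)
    rw [Units.val_mul, map_mul, mul_pow]
  have hNker : ∀ x : V, ((N x : V) : Γ) ∈ σ.ker := by
    intro x
    obtain ⟨b, c, h⟩ := memV.mp x.2
    rw [MonoidHom.mem_ker, hN, hpart x b c h, ← Finset.sum_mul, ← Finset.sum_mul, hsb, hsc, zero_mul, zero_mul, R.t_zero]
  have hNg : ∀ (g : Γ) (s₀ : Kˣ), σ g = R.h s₀ → ∀ (x y : V), (y : Γ) = g * x * g⁻¹ → N y = N x := by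
    intro g s₀ hg x y hy
    rw [hN, hN]
    refine Fintype.prod_equiv (Equiv.mulRight s₀) _ _ (fun s => ?_)
    apply Subtype.ext
    rw [act_val, act_val, hy]
    have e : σ (S.L (R.h s) * g) = σ (S.L (R.h (s * s₀))) := by
      rw [map_mul, S.L_spec, S.L_spec, hg, map_mul]
    have := S.conj_congr (x := (x : Γ)) e
    show _ = S.L (R.h (s * s₀)) * (x : Γ) * (S.L (R.h (s * s₀)))⁻¹
    rw [← this]
    group
  have hkV : ∀ z ∈ σ.ker, z ∈ V := by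
    intro z hz
    refine memV.mpr ⟨0, 0, ?_⟩
    rw [MonoidHom.mem_ker.mp hz, R.t_zero]
  refine ⟨fun x => if h : x ∈ V then ((N ⟨x, h⟩ : V) : Γ) else 1, ?_, ?_, ?_, ?_⟩
  · intro x x' b c b' c' hx hx'
    have h1 : x ∈ V := ⟨b, c, hx⟩
    have h2 : x' ∈ V := ⟨b', c', hx'⟩
    have h3 : x * x' ∈ V := V.mul_mem h1 h2
    simp only [dif_pos h1, dif_pos h2, dif_pos h3]
    rw [← Subgroup.coe_mul, ← map_mul]
    rfl
  · intro x b c hx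
    have h1 : x ∈ V := ⟨b, c, hx⟩
    simp only [dif_pos h1]
    exact hNker _
  · intro g s hg x b c hx
    have h1 : x ∈ V := ⟨b, c, hx⟩
    have h2 : g * x * g⁻¹ ∈ V := by
      refine memV.mpr ⟨(s : K) ^ 3 * (f (s : K))⁻¹ ^ 3 * b, f (s : K) ^ 3 * c, ?_⟩
      rw [map_mul, map_mul, map_inv, hg, hx, R.h_t, mul_zero]
    simp only [dif_pos h1, dif_pos h2]
    rw [hNg g s hg ⟨x, h1⟩ ⟨_, h2⟩ rfl]
  · intro z hz
    have h1 : z ∈ V := hkV z hz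
    simp only [dif_pos h1]
    have h2 : ∀ s : Kˣ, act s ⟨z, h1⟩ = ⟨z, h1⟩ := fun s => Subtype.ext (by
      rw [act_val]
      exact S.conj_ker hz _)
    rw [hN, Finset.prod_congr rfl (fun s _ => h2 s), Finset.prod_const, Finset.card_univ, Subgroup.coe_pow]
    apply eq_inv_of_mul_eq_one_left
    show z ^ Fintype.card Kˣ * z = 1
    rw [← pow_succ, Fintype.card_units]
    have hq : 2 ≤ Fintype.card K := Fintype.one_lt_card
    rw [Nat.sub_add_cancel (by omega)]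
    have h3 : 3 ∣ Fintype.card K := by
      have h4 := Nat.cast_card_eq_zero K
      exact (CharP.cast_eq_zero_iff K 3 _).mp h4
    obtain ⟨e, he⟩ := h3
    rw [he, pow_mul, S.h3 z hz, one_pow]

theorem comm_sig {x w : Γ} {a b c b' c' : K} (hx : σ x = R.t a b c) (hw : σ w = R.t 0 b' c') :
    σ ⁅x, w⁆ = R.t 0 0 (a * b') := by
  rw [map_commutatorElement, hx, hw, commutatorElement_def, R.t_comm]
  group

theorem comm_sigU {x w : Γ} {a b c a' b' c' : K} (hx : σ x = R.t a b c) (hw : σ w = R.t a' b' c') :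
    ∃ b'' c'', σ ⁅x, w⁆ = R.t 0 b'' c'' := by
  rw [map_commutatorElement, hx, hw]
  exact R.comm_U a b c a' b' c'

/-- Properties of the retraction. -/
structure PiS (S : SX R σ) (Pi : Γ → Γ) : Prop where
  hm : ∀ {x x' : Γ} {b c b' c' : K}, σ x = R.t 0 b c → σ x' = R.t 0 b' c' → Pi (x * x') = Pi x * Pi x'
  hk : ∀ {x : Γ} {b c : K}, σ x = R.t 0 b c → Pi x ∈ σ.ker
  hg : ∀ (g : Γ) (s : Kˣ), σ g = R.h s → ∀ {x : Γ} {b c : K}, σ x = R.t 0 b c → Pi (g * x * g⁻¹) = Pi x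
  hz : ∀ z ∈ σ.ker, Pi z = z⁻¹

omit S

variable {S : SX R σ} {Pi : Γ → Γ} (P : PiS S Pi)

include P

theorem PiS.tor_inv {w : K} (hw : w ≠ 0) {x x' w₁ w₁' : Γ} {a b c a' b' c' : K} (hx : σ x = R.t a b c) (hx' : σ w₁ = R.t a' b' c')
    (h1 : σ x' = R.t (w * a) (w * f w ^ 3 * b) (w ^ 2 * f w ^ 3 * c))
    (h2 : σ w₁' = R.t (w * a') (w * f w ^ 3 * b') (w ^ 2 * f w ^ 3 * c')) :
    Pi ⁅x', w₁'⁆ = Pi ⁅x, w₁⁆ := by
  obtain ⟨s, hs⟩ := S.tor hw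
  obtain ⟨b'', c'', hb⟩ := S.comm_sigU hx hx'
  rw [← P.hg (S.L (R.h s)) s (S.L_spec _) hb, S.conj_comm]
  congr 1
  apply S.cgr
  · rw [h1, map_mul, map_mul, map_inv, S.L_spec, hx, hs]
  · rw [h2, map_mul, map_mul, map_inv, S.L_spec, hx', hs]

/-- Stage four. -/
theorem PiS.ab (a b : K) : Pi ⁅S.Lt a 0 0, S.Lt 0 b 0⁆ = 1 := by
  have hsig : ∀ x, σ ⁅S.Lt x 0 0, S.Lt 0 b 0⁆ = R.t 0 0 (x * b) := fun x => S.comm_sig (S.Lt_spec _ _ _) (S.Lt_spec _ _ _)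
  refine sch_par (fun a => Pi ⁅S.Lt a 0 0, S.Lt 0 b 0⁆) (fun x x' => ?_) (fun x => ?_) (fun x => S.h3 _ (P.hk (hsig x))) a
  · show Pi ⁅S.Lt (x + x') 0 0, S.Lt 0 b 0⁆ = Pi ⁅S.Lt x 0 0, S.Lt 0 b 0⁆ * Pi ⁅S.Lt x' 0 0, S.Lt 0 b 0⁆
    have hW := S.comm_V (S.Lt_spec 0 (x * f x' ^ 3) (x ^ 2 * f x' ^ 3 - x * x' * f x' ^ 3)) (S.Lt_spec 0 b 0)
    have hc : ⁅S.Lt x' 0 0, S.Lt 0 b 0⁆ * S.Lt x 0 0 = S.Lt x 0 0 * ⁅S.Lt x' 0 0, S.Lt 0 b 0⁆ :=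
      (commutatorElement_eq_one_iff_mul_comm.mp (S.comm_Z (S.Lt_spec x 0 0) (hsig x'))).symm
    rw [S.cgr (S.split_aa x x') rfl, comm_mul_left (by rw [hW]; simp), hW, one_mul, comm_mul_left hc, P.hm (hsig x') (hsig x)]
    exact S.cen (P.hk (hsig x)) _
  · have h1 : (-1 : K) ≠ 0 := neg_ne_zero.mpr one_ne_zero
    refine P.tor_inv h1 (S.Lt_spec x 0 0) (S.Lt_spec 0 b 0) ?_ ?_
    · rw [S.Lt_spec]
      congr 1 <;> simp
    · rw [S.Lt_spec, f_neg_one]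
      congr 1 <;> simp

/-- Stage four, all elements. -/
theorem PiS.rho {x v : Γ} {a b c b' c' : K} (hx : σ x = R.t a b c) (hv : σ v = R.t 0 b' c') : Pi ⁅x, v⁆ = 1 := by
  rw [S.cgr (S.split_U hx) (S.split_V hv)]
  have hZ : ⁅S.Lt a 0 0 * S.Lt 0 b c, S.Lt 0 0 c'⁆ = 1 :=
    S.comm_Z (a := a) (b := b) (c := c) (by rw [map_mul, S.Lt_spec, S.Lt_spec, R.t_a_V]) (S.Lt_spec 0 0 c')
  rw [comm_mul_right (by rw [hZ]; simp), hZ, mul_one]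
  have hW := S.comm_V (S.Lt_spec 0 b c) (S.Lt_spec 0 b' 0)
  rw [comm_mul_left (by rw [hW]; simp), hW, one_mul]
  exact P.ab a b'

theorem PiS.conj {x v : Γ} {a b c b' c' : K} (hx : σ x = R.t a b c) (hv : σ v = R.t 0 b' c') : Pi (x * v * x⁻¹) = Pi v := by
  have e : x * v * x⁻¹ = ⁅x, v⁆ * v := by
    rw [commutatorElement_def]
    group
  rw [e, P.hm (S.comm_sig hx hv) hv, P.rho hx hv, one_mul]

theorem PiS.one : Pi 1 = 1 := by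
  rw [P.hz 1 (Subgroup.one_mem _), inv_one]

theorem PiS.inv {v : Γ} {b c : K} (hv : σ v = R.t 0 b c) : Pi v⁻¹ = (Pi v)⁻¹ := by
  have h1 : σ v⁻¹ = R.t 0 (-b) (-c) := by
    rw [map_inv, hv]
    apply inv_eq_of_mul_eq_one_right
    rw [R.t_V2, add_neg_cancel, add_neg_cancel, R.t_zero]
  have h2 := P.hm hv h1
  rw [mul_inv_cancel, P.one] at h2
  exact eq_inv_of_mul_eq_one_right h2.symm

theorem PiS.rho' {x v : Γ} {a b c b' c' : K} (hx : σ x = R.t a b c) (hv : σ v = R.t 0 b' c') : Pi ⁅v, x⁆ = 1 := by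
  have e : ⁅v, x⁆ = ⁅x, v⁆⁻¹ := by
    rw [commutatorElement_inv]
  rw [e, P.inv (S.comm_sig hx hv), P.rho hx hv, inv_one]

theorem PiS.conjV {x v : Γ} {a b c b' c' : K} (hx : σ x = R.t a b c) (hv : σ v = R.t 0 b' c') :
    ∃ b₁ c₁, σ (x * v * x⁻¹) = R.t 0 b₁ c₁ := by
  have e : x * v * x⁻¹ = ⁅x, v⁆ * v := by
    rw [commutatorElement_def]
    group
  refine ⟨0 + b', a * b' + c', ?_⟩
  rw [e, map_mul, S.comm_sig hx hv, hv, R.t_V2]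

theorem PiS.left {x₁ x₂ x' : Γ} {a b c a₂ b₂ c₂ a' b' c' : K} (h1 : σ x₁ = R.t a b c) (h2 : σ x₂ = R.t a₂ b₂ c₂) (h' : σ x' = R.t a' b' c') :
    Pi ⁅x₁ * x₂, x'⁆ = Pi ⁅x₂, x'⁆ * Pi ⁅x₁, x'⁆ := by
  have e : ⁅x₁ * x₂, x'⁆ = x₁ * ⁅x₂, x'⁆ * x₁⁻¹ * ⁅x₁, x'⁆ := by
    simp only [commutatorElement_def]
    group
  obtain ⟨b₃, c₃, h3⟩ := S.comm_sigU h2 h'
  obtain ⟨b₄, c₄, h4⟩ := S.comm_sigU h1 h'
  obtain ⟨b₅, c₅, h5⟩ := P.conjV h1 h3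
  rw [e, P.hm h5 h4, P.conj h1 h3]

theorem PiS.right {x x₁ x₂ : Γ} {a b c a₁ b₁ c₁ a₂ b₂ c₂ : K} (h : σ x = R.t a b c) (h1 : σ x₁ = R.t a₁ b₁ c₁) (h2 : σ x₂ = R.t a₂ b₂ c₂) :
    Pi ⁅x, x₁ * x₂⁆ = Pi ⁅x, x₁⁆ * Pi ⁅x, x₂⁆ := by
  have e : ⁅x, x₁ * x₂⁆ = ⁅x, x₁⁆ * (x₁ * ⁅x, x₂⁆ * x₁⁻¹) := by
    simp only [commutatorElement_def]
    group
  obtain ⟨b₃, c₃, h3⟩ := S.comm_sigU h h2
  obtain ⟨b₄, c₄, h4⟩ := S.comm_sigU h h1
  obtain ⟨b₅, c₅, h5⟩ := P.conjV h1 h3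
  rw [e, P.hm h4 h5, P.conj h1 h3]

/-- Stage five. -/
theorem PiS.aa (a a' : K) : Pi ⁅S.Lt a 0 0, S.Lt a' 0 0⁆ = 1 := by
  obtain ⟨t, ht0, ht1, ht2⟩ := S.ht
  have hk : ∀ x x', Pi ⁅S.Lt x 0 0, S.Lt x' 0 0⁆ ∈ σ.ker := by
    intro x x'
    obtain ⟨b, c, h⟩ := S.comm_sigU (S.Lt_spec x 0 0) (S.Lt_spec x' 0 0)
    exact P.hk h
  have hab : ∀ x x', σ (S.Lt x 0 0 * S.Lt x' 0 0) = R.t (x + x') (0 + 0 - x * f x' ^ 3) (0 + 0 - x ^ 2 * f x' ^ 3 - 0 * x' + x * x' * f x' ^ 3) := by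
    intro x x'
    rw [map_mul, S.Lt_spec, S.Lt_spec, R.t_mul]
  refine bi_all (fun a a' => Pi ⁅S.Lt a 0 0, S.Lt a' 0 0⁆) (fun x x' w => ?_) (fun x w w' => ?_) (fun χ hχ x w => ?_) ht0 ht1 ht2 a a'
  · show Pi ⁅S.Lt (x + x') 0 0, S.Lt w 0 0⁆ = Pi ⁅S.Lt x 0 0, S.Lt w 0 0⁆ * Pi ⁅S.Lt x' 0 0, S.Lt w 0 0⁆
    rw [S.cgr (S.split_aa x x') rfl, P.left (hab x x') (S.Lt_spec _ _ _) (S.Lt_spec _ _ _),
      P.rho' (S.Lt_spec _ _ _) (S.Lt_spec _ _ _), one_mul, P.left (S.Lt_spec _ _ _) (S.Lt_spec _ _ _) (S.Lt_spec _ _ _)]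
    exact S.cen (hk _ _) _
  · show Pi ⁅S.Lt x 0 0, S.Lt (w + w') 0 0⁆ = Pi ⁅S.Lt x 0 0, S.Lt w 0 0⁆ * Pi ⁅S.Lt x 0 0, S.Lt w' 0 0⁆
    rw [S.cgr rfl (S.split_aa w w'), P.right (S.Lt_spec _ _ _) (hab w w') (S.Lt_spec _ _ _),
      P.rho (S.Lt_spec _ _ _) (S.Lt_spec _ _ _), mul_one, P.right (S.Lt_spec _ _ _) (S.Lt_spec _ _ _) (S.Lt_spec _ _ _)]
  · refine P.tor_inv hχ (S.Lt_spec x 0 0) (S.Lt_spec w 0 0) ?_ ?_
    · rw [S.Lt_spec]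
      congr 1 <;> simp
    · rw [S.Lt_spec]
      congr 1 <;> simp

theorem PiS.all {x x' : Γ} {a b c a' b' c' : K} (h : σ x = R.t a b c) (h' : σ x' = R.t a' b' c') : Pi ⁅x, x'⁆ = 1 := by
  rw [S.cgr (S.split_U h) (S.split_U h'), P.left (S.Lt_spec _ _ _) (S.Lt_spec _ _ _) (by rw [map_mul, S.Lt_spec, S.Lt_spec, R.t_a_V]),
    P.rho' (by rw [map_mul, S.Lt_spec, S.Lt_spec, R.t_a_V]) (S.Lt_spec _ _ _), one_mul,
    P.right (S.Lt_spec _ _ _) (S.Lt_spec _ _ _) (S.Lt_spec _ _ _), P.aa, one_mul, P.rho (S.Lt_spec _ _ _) (S.Lt_spec _ _ _)]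

end SX

/-- The kernel does not meet the commutator subgroup of the preimage of the Sylow `3`-subgroup. -/
theorem SX.no_three [Fintype K] {R : RD K f G} {σ : Γ →* G} (S : SX R σ) {y : Γ} (hy : y ∈ σ.ker)
    (hyc : y ∈ ⁅R.U.comap σ, R.U.comap σ⁆) : y = 1 := by
  obtain ⟨Pi, hm, hk, hg, hz⟩ := S.exists_Pi
  have P : SX.PiS S Pi := ⟨hm, hk, hg, hz⟩
  let W : Subgroup Γ :=
    { carrier := {x | (∃ b c, σ x = R.t 0 b c) ∧ Pi x = 1}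
      mul_mem' := by
        rintro x x' ⟨⟨b, c, h⟩, h1⟩ ⟨⟨b', c', h'⟩, h1'⟩
        refine ⟨⟨_, _, by rw [map_mul, h, h', R.t_V2]⟩, ?_⟩
        rw [P.hm h h', h1, h1', one_mul]
      one_mem' := ⟨⟨0, 0, by rw [map_one, R.t_zero]⟩, P.one⟩
      inv_mem' := by
        rintro x ⟨⟨b, c, h⟩, h1⟩
        refine ⟨⟨-b, -c, ?_⟩, ?_⟩
        · rw [map_inv, h]
          apply inv_eq_of_mul_eq_one_right
          rw [R.t_V2, add_neg_cancel, add_neg_cancel, R.t_zero]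
        · rw [P.inv h, h1, inv_one] }
  have hle : ⁅R.U.comap σ, R.U.comap σ⁆ ≤ W := by
    rw [Subgroup.commutator_le]
    intro x hx x' hx'
    obtain ⟨a, b, c, h⟩ := hx
    obtain ⟨a', b', c', h'⟩ := hx'
    exact ⟨S.comm_sigU h h', P.all h h'⟩
  have h1 := (hle hyc).2
  rw [P.hz y hy] at h1
  exact inv_eq_one.mp h1

end Cfsg.Agent.Lib.Ree
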