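import Cfsg.Agent.Lib.Ree.SchC
import Cfsg.Agent.Lib.Ree.NE
import Cfsg.Agent.Lib.Ree.RLI

/-! Schur multipliers of the small Ree groups: the prime two. -/

set_option autoImplicit false
set_option linter.unusedSimpArgs false
set_option linter.unusedVariables false
set_option linter.unusedSectionVars false

namespace Cfsg.Agent.Lib.Ree

open scoped commutatorElement
open Cfsg.Agent.Lib.Suzuki (comm_mul_left comm_mul_right comm_congr)

/-- An alternating biadditive map on an elementary abelian group of order eight is degenerate. -/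
theorem alt_rad {A M : Type*} [CommGroup A] [Group M] (hA : Nat.card A = 8) (h2 : ∀ x : A, x * x = 1)
    (y : M) (hy2 : y * y = 1) (hM : ∀ z : M, z = 1 ∨ z = y) (B : A → A → M)
    (hl : ∀ x x' w, B (x * x') w = B x w * B x' w) (hr : ∀ x w w', B x (w * w') = B x w * B x w')
    (ha : ∀ x, B x x = 1) : ∃ s, s ≠ 1 ∧ ∀ s', B s s' = 1 := by
  classical
  haveI : Finite A := Nat.finite_of_card_ne_zero (by omega)
  haveI := Fintype.ofFinite A
  by_contra hcon
  push Not at hcon
  have hy : ∀ {x w}, B x w ≠ 1 → B x w = y := fun {x w} h => (hM _).resolve_left h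
  have hanti : ∀ x w, B x w * B w x = 1 := by
    intro x w
    have := ha (x * w)
    rw [hl, hr, hr, ha, ha, one_mul, mul_one] at this
    exact this
  have h10 : ∀ {x w}, B x w = 1 → B w x = 1 := by
    intro x w h
    have := hanti x w
    rwa [h, one_mul] at this
  have hy1 : ∀ {x w}, B x w ≠ 1 → B w x ≠ 1 := fun {x w} h h' => h (h10 h')
  have hone : ∀ x, B x 1 = 1 := by
    intro x
    have := hr x 1 1
    rw [mul_one] at this
    exact mul_eq_left.mp this.symm
  obtain ⟨s, hs⟩ : ∃ s : A, s ≠ 1 := by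
    haveI : Nontrivial A := (Finite.one_lt_card_iff_nontrivial).mp (by omega)
    exact exists_ne 1
  obtain ⟨t, ht⟩ := hcon s hs
  let P : Finset A := {1, s, t, s * t}
  have hPc : P.card ≤ 4 := Finset.card_le_four
  obtain ⟨u, hu⟩ : ∃ u, u ∉ P := by
    by_contra hc
    push Not at hc
    have : P = Finset.univ := Finset.eq_univ_iff_forall.mpr hc
    have h3 : P.card = 8 := by
      rw [this, Finset.card_univ, ← Nat.card_eq_fintype_card, hA]
    omega
  have hPt : ∀ x, x * t ∈ P → x ∈ P := by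
    intro x hx
    simp only [P, Finset.mem_insert, Finset.mem_singleton] at hx ⊢
    have e1 : ∀ {a b : A}, a * t = b * t → a = b := fun h => mul_right_cancel h
    rcases hx with h | h | h | h
    · right; right; left
      calc x = x * (t * t) := by rw [h2, mul_one]
        _ = x * t * t := by rw [mul_assoc]
        _ = t := by rw [h, one_mul]
    · right; right; right
      calc x = x * (t * t) := by rw [h2, mul_one]
        _ = x * t * t := by rw [mul_assoc]
        _ = s * t := by rw [h]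
    · left
      exact e1 (by rw [h, one_mul])
    · right; left
      exact e1 h
  have hPs : ∀ x, x * s ∈ P → x ∈ P := by
    intro x hx
    simp only [P, Finset.mem_insert, Finset.mem_singleton] at hx ⊢
    have e1 : ∀ {a b : A}, a * s = b * s → a = b := fun h => mul_right_cancel h
    rcases hx with h | h | h | h
    · right; left
      calc x = x * (s * s) := by rw [h2, mul_one]
        _ = x * s * s := by rw [mul_assoc]
        _ = s := by rw [h, one_mul]
    · left
      exact e1 (by rw [h, one_mul])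
    · right; right; right
      calc x = x * (s * s) := by rw [h2, mul_one]
        _ = x * s * s := by rw [mul_assoc]
        _ = t * s := by rw [h]
        _ = s * t := mul_comm _ _
    · right; right; left
      exact e1 (by rw [h, mul_comm])
  obtain ⟨u₁, hu₁, hu₁P⟩ : ∃ u₁, B s u₁ = 1 ∧ u₁ ∉ P := by
    by_cases h : B s u = 1
    · exact ⟨u, h, hu⟩
    · refine ⟨u * t, ?_, fun h' => hu (hPt _ h')⟩
      rw [hr, hy h, hy ht, hy2]
  obtain ⟨w, hw₁, hw₂, hwP⟩ : ∃ w, B s w = 1 ∧ B t w = 1 ∧ w ∉ P := by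
    by_cases h : B t u₁ = 1
    · exact ⟨u₁, hu₁, h, hu₁P⟩
    · refine ⟨u₁ * s, ?_, ?_, fun h' => hu₁P (hPs _ h')⟩
      · rw [hr, hu₁, ha, one_mul]
      · rw [hr, hy h, hy (hy1 ht), hy2]
  have hw1 : w ≠ 1 := by
    intro h
    apply hwP
    simp [P, h]
  obtain ⟨s', hs'⟩ := hcon w hw1
  let Q : Subgroup A :=
    { carrier := {x | B w x = 1}
      mul_mem' := by
        intro a b ha' hb'
        show B w (a * b) = 1
        rw [hr, show B w a = 1 from ha', show B w b = 1 from hb', one_mul]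
      one_mem' := hone w
      inv_mem' := by
        intro a ha'
        show B w a⁻¹ = 1
        have : a⁻¹ = a := inv_eq_of_mul_eq_one_left (h2 a)
        rw [this]
        exact ha' }
  have hQne : Q ≠ ⊤ := by
    intro h
    have : s' ∈ Q := h ▸ Subgroup.mem_top s'
    exact hs' this
  have hQd : Nat.card Q ∣ 8 := hA ▸ Subgroup.card_subgroup_dvd_card Q
  have hQl : Nat.card Q ≠ 8 := by
    intro h
    apply hQne
    apply Subgroup.eq_top_of_card_eq
    rw [h, hA]
  have hQ4 : Nat.card Q ≤ 4 := by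
    have : Nat.card Q ∈ Nat.divisors 8 := Nat.mem_divisors.mpr ⟨hQd, by norm_num⟩
    have h8 : Nat.divisors 8 = {1, 2, 4, 8} := by decide
    rw [h8] at this
    simp only [Finset.mem_insert, Finset.mem_singleton] at this
    omega
  have hsQ : s ∈ Q := h10 hw₁
  have htQ : t ∈ Q := h10 hw₂
  have hwQ : w ∈ Q := ha w
  have hts : t ≠ s := by
    intro h
    apply ht
    rw [h]
    exact ha s
  have ht1 : t ≠ 1 := by
    intro h
    apply ht
    rw [h]
    exact hone s
  have hst1 : s * t ≠ 1 := by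
    intro h
    apply hts
    calc t = (s * s) * t := by rw [h2, one_mul]
      _ = s := by rw [mul_assoc, h, mul_one]
  have hst2 : s * t ≠ s := fun h => ht1 (mul_eq_left.mp h)
  have hst3 : s * t ≠ t := fun h => hs (mul_eq_right.mp h)
  have hcard : (insert w P).card = 5 := by
    rw [Finset.card_insert_of_notMem hwP]
    simp only [P]
    rw [Finset.card_insert_of_notMem, Finset.card_insert_of_notMem, Finset.card_insert_of_notMem, Finset.card_singleton]
    · simp only [Finset.mem_singleton]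
      exact fun h => hst3 h.symm
    · simp only [Finset.mem_insert, Finset.mem_singleton, not_or]
      exact ⟨fun h => hts h.symm, fun h => hst2 h.symm⟩
    · simp only [Finset.mem_insert, Finset.mem_singleton, not_or]
      exact ⟨fun h => hs h.symm, fun h => ht1 h.symm, fun h => hst1 h.symm⟩
  have hsub : ∀ x ∈ insert w P, x ∈ Q := by
    intro x hx
    simp only [P, Finset.mem_insert, Finset.mem_singleton] at hx
    rcases hx with rfl | rfl | rfl | rfl | rfl
    · exact hwQ
    · exact Q.one_mem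
    · exact hsQ
    · exact htQ
    · exact Q.mul_mem hsQ htQ
  haveI := Fintype.ofFinite Q
  have : (insert w P).card ≤ Nat.card Q := by
    rw [Nat.card_eq_fintype_card, ← Finset.card_univ, ← Finset.card_map ⟨(Subtype.val : Q → A), Subtype.val_injective⟩]
    apply Finset.card_le_card
    intro x hx
    simp only [Finset.mem_map, Finset.mem_univ, true_and]
    exact ⟨⟨x, hsub x hx⟩, rfl⟩
  omega

/-- The number of elements of an invariant subgroup modulo seven. -/
theorem card_mod_seven {G : Type*} [Group G] [Finite G] (T : Subgroup G) (r : G) (hT : ∀ x ∈ T, r * x * r⁻¹ ∈ T) (hr : r ^ 7 = 1) :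
    Nat.card T % 7 = Nat.card ↥(T ⊓ Subgroup.centralizer {r}) % 7 := by
  classical
  haveI := Fintype.ofFinite T
  let φ : Function.End T := fun x => ⟨r * x * r⁻¹, hT x x.2⟩
  have hpow : ∀ (n : ℕ) (x : T), (((φ ^ n) x : T) : G) = r ^ n * x * (r ^ n)⁻¹ := by
    intro n
    induction n with
    | zero =>
      intro x
      simp only [pow_zero, one_mul, inv_one, mul_one]
      rfl
    | succ n ih =>
      intro x
      rw [pow_succ, show ((φ ^ n * φ) x) = (φ ^ n) (φ x) from rfl, ih]
      show r ^ n * (r * x * r⁻¹) * (r ^ n)⁻¹ = _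
      rw [pow_succ]
      group
  have h7 : φ ^ 7 ^ 1 = 1 := by
    funext x
    apply Subtype.ext
    rw [pow_one, hpow, hr]
    simp
    rfl
  haveI : Fact (Nat.Prime 7) := ⟨by norm_num⟩
  have h := Equiv.Perm.card_fixedPoints_modEq h7
  rw [Nat.ModEq] at h
  rw [Nat.card_eq_fintype_card, h]
  congr 1
  rw [← Nat.card_eq_fintype_card]
  refine Nat.card_congr ⟨fun x => ⟨x.1.1, x.1.2, ?_⟩, fun x => ⟨⟨x.1, x.2.1⟩, ?_⟩, fun x => rfl, fun x => rfl⟩
  · show x.1.1 ∈ Subgroup.centralizer {r}
    rw [Subgroup.mem_centralizer_singleton_iff]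
    have e : r * x.1.1 * r⁻¹ = x.1.1 := congrArg Subtype.val x.2
    symm
    calc r * x.1.1 = (r * x.1.1 * r⁻¹) * r := by group
      _ = x.1.1 * r := by rw [e]
  · apply Subtype.ext
    show r * x.1 * r⁻¹ = x.1
    have := Subgroup.mem_centralizer_singleton_iff.mp x.2.2
    rw [← this]
    group

/-- The prime two: an elementary abelian group of order eight with an automorphism of order seven. -/
theorem no_two {Γ G : Type*} [Group Γ] [Group G] [Finite G] {σ : Γ →* G} (hs : Function.Surjective σ) (hK : σ.ker ≤ Subgroup.center Γ)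
    (S : Subgroup G) (hS8 : Nat.card S = 8) (hSq : ∀ x ∈ S, x * x = 1) (r : G) (hr : ∀ x ∈ S, r * x * r⁻¹ ∈ S)
    (hr' : ∀ x ∈ S, r⁻¹ * x * r ∈ S) (hr7 : r ^ 7 = 1) (hrS : ∃ x ∈ S, r * x * r⁻¹ ≠ x) {y : Γ} (hy : y ∈ σ.ker) (hy2 : y * y = 1)
    (hY : ∀ w ∈ σ.ker, w = 1 ∨ w = y) (hyc : y ∈ ⁅S.comap σ, S.comap σ⁆) : y = 1 := by
  classical
  have hcen : ∀ {z : Γ}, z ∈ σ.ker → ∀ g : Γ, g * z = z * g := fun hz g => Subgroup.mem_center_iff.mp (hK hz) g
  have hSinv : ∀ x ∈ S, x⁻¹ = x := fun x hx => inv_eq_of_mul_eq_one_left (hSq x hx)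
  have hScomm : ∀ x ∈ S, ∀ x' ∈ S, x * x' = x' * x := by
    intro x hx x' hx'
    have h1 := hSq _ (S.mul_mem hx hx')
    have h2 : (x * x')⁻¹ = x * x' := inv_eq_of_mul_eq_one_left h1
    rw [mul_inv_rev, hSinv x hx, hSinv x' hx'] at h2
    exact h2.symm
  letI inst : CommGroup S := { (inferInstance : Group S) with mul_comm := fun x x' => Subtype.ext (hScomm x x.2 x' x'.2) }
  let L : G → Γ := Function.surjInv hs
  have hL : ∀ g, σ (L g) = g := Function.surjInv_eq hs
  have hmem : ∀ x : S, ∀ x' : S, ⁅L x, L x'⁆ ∈ σ.ker := by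
    intro x x'
    rw [MonoidHom.mem_ker, map_commutatorElement, hL, hL, commutatorElement_eq_one_iff_mul_comm]
    exact hScomm x x.2 x' x'.2
  obtain ⟨s, hs1, hsr⟩ := alt_rad (A := S) (M := σ.ker) hS8 (fun x => Subtype.ext (hSq x x.2)) ⟨y, hy⟩ (Subtype.ext hy2)
    (fun z => (hY z z.2).imp (fun h => Subtype.ext h) (fun h => Subtype.ext h))
    (fun a b => ⟨⁅L a, L b⁆, hmem a b⟩)
    (fun x x' w => Subtype.ext (by
      show ⁅L ((x * x' : S) : G), L w⁆ = ⁅L x, L w⁆ * ⁅L x', L w⁆
      rw [comm_congr hK (x' := L x * L x') (w' := L w) (by rw [map_mul, hL, hL, hL]; rfl) rfl,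
        comm_mul_left (hcen (hmem x' w) (L x)).symm]
      exact hcen (hmem x w) _))
    (fun x w w' => Subtype.ext (by
      show ⁅L x, L ((w * w' : S) : G)⁆ = ⁅L x, L w⁆ * ⁅L x, L w'⁆
      rw [comm_congr hK (x' := L x) (w' := L w * L w') rfl (by rw [map_mul, hL, hL, hL]; rfl),
        comm_mul_right (hcen (hmem x w') (L w)).symm]))
    (fun x => Subtype.ext (by
      show ⁅L x, L x⁆ = 1
      rw [commutatorElement_self]))
  have hsr' : ∀ s' : S, ⁅L s, L s'⁆ = 1 := fun s' => congrArg Subtype.val (hsr s')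
  -- the radical
  let Rd : Subgroup G :=
    { carrier := {x | x ∈ S ∧ ∀ s' ∈ S, ⁅L x, L s'⁆ = 1}
      mul_mem' := by
        rintro a b ⟨ha, ha'⟩ ⟨hb, hb'⟩
        refine ⟨S.mul_mem ha hb, fun s' hs' => ?_⟩
        rw [comm_congr hK (x' := L a * L b) (w' := L s') (by rw [map_mul, hL, hL, hL]) rfl,
          comm_mul_left (by rw [hb' s' hs']; simp), hb' s' hs', ha' s' hs', one_mul]
      one_mem' := by
        refine ⟨S.one_mem, fun s' hs' => ?_⟩
        rw [comm_congr hK (x' := 1) (w' := L s') (by rw [map_one, hL]) rfl]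
        simp
      inv_mem' := by
        rintro a ⟨ha, ha'⟩
        show a⁻¹ ∈ S ∧ ∀ s' ∈ S, ⁅L a⁻¹, L s'⁆ = 1
        rw [hSinv a ha]
        exact ⟨ha, ha'⟩ }
  have hRdS : Rd ≤ S := fun x hx => hx.1
  have hRdr : ∀ x ∈ Rd, r * x * r⁻¹ ∈ Rd := by
    rintro x ⟨hx, hx'⟩
    refine ⟨hr x hx, fun s' hs' => ?_⟩
    have h1 := hx' _ (hr' s' hs')
    have e : ⁅L (r * x * r⁻¹), L s'⁆ = L r * ⁅L x, L (r⁻¹ * s' * r)⁆ * (L r)⁻¹ := by
      have e1 : L r * ⁅L x, L (r⁻¹ * s' * r)⁆ * (L r)⁻¹ = ⁅L r * L x * (L r)⁻¹, L r * L (r⁻¹ * s' * r) * (L r)⁻¹⁆ := by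
        simp only [commutatorElement_def]
        group
      rw [e1]
      apply comm_congr hK
      · simp only [map_mul, map_inv, hL]
      · simp only [map_mul, map_inv, hL]
        group
    rw [e, h1]
    group
  -- counting modulo seven
  have hSr := card_mod_seven S r hr hr7
  have hCl : S ⊓ Subgroup.centralizer {r} ≤ S := inf_le_left
  have hdiv : ∀ T : Subgroup G, T ≤ S → Nat.card T ∈ ({1, 2, 4, 8} : Finset ℕ) := by
    intro T hT
    have h1 : Nat.card T ∣ 8 := by
      have := Subgroup.card_dvd_of_le hT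
      rwa [hS8] at this
    have h2 : Nat.card T ∈ Nat.divisors 8 := Nat.mem_divisors.mpr ⟨h1, by norm_num⟩
    have h8 : Nat.divisors 8 = {1, 2, 4, 8} := by decide
    rwa [h8] at h2
  have hcard_eq : ∀ T : Subgroup G, T ≤ S → Nat.card T = 8 → T = S := by
    intro T hT h8
    apply Subgroup.eq_of_le_of_card_ge hT
    rw [hS8, h8]
  have hC1 : S ⊓ Subgroup.centralizer {r} = ⊥ := by
    have h1 := hdiv _ hCl
    rw [hS8] at hSr
    simp only [Finset.mem_insert, Finset.mem_singleton] at h1
    rcases h1 with h | h | h | h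
    · exact Subgroup.eq_bot_of_card_eq _ h
    · rw [h] at hSr
      omega
    · rw [h] at hSr
      omega
    · exfalso
      have h2 := hcard_eq _ hCl h
      obtain ⟨x, hx, hx'⟩ := hrS
      apply hx'
      have h3 : x ∈ S ⊓ Subgroup.centralizer {r} := by rw [h2]; exact hx
      have h4 := Subgroup.mem_centralizer_singleton_iff.mp h3.2
      rw [← h4]
      group
  have hRdC : Rd ⊓ Subgroup.centralizer {r} = ⊥ := by
    rw [eq_bot_iff, ← hC1]
    exact inf_le_inf_right _ hRdS
  have hRdc := card_mod_seven Rd r hRdr hr7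
  rw [hRdC, Subgroup.card_bot] at hRdc
  have hRd8 : Nat.card Rd = 8 := by
    have h1 := hdiv _ hRdS
    simp only [Finset.mem_insert, Finset.mem_singleton] at h1
    rcases h1 with h | h | h | h
    · exfalso
      have h2 := Subgroup.eq_bot_of_card_eq _ h
      have h3 : (s : G) ∈ Rd := ⟨s.2, fun s' hs' => hsr' ⟨s', hs'⟩⟩
      rw [h2, Subgroup.mem_bot] at h3
      exact hs1 (Subtype.ext h3)
    · rw [h] at hRdc
      omega
    · rw [h] at hRdc
      omega
    · exact h
  have hRdEq := hcard_eq _ hRdS hRd8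
  have hle : ⁅S.comap σ, S.comap σ⁆ ≤ ⊥ := by
    rw [Subgroup.commutator_le]
    intro x hx x' hx'
    have h1 : σ x ∈ Rd := by rw [hRdEq]; exact hx
    have h2 := h1.2 (σ x') hx'
    rw [Subgroup.mem_bot, comm_congr hK (x' := L (σ x)) (w' := L (σ x')) (hL _).symm (hL _).symm, h2]
  exact Subgroup.mem_bot.mp (hle hyc)

end Cfsg.Agent.Lib.Ree
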